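import Mathlib
import Cfsg.Agent.Helper29.Deg7.Defs

set_option autoImplicit false

namespace Cfsg.Agent.Helper29.Deg7

/-- The table of a permutation. -/
def toL (σ : Equiv.Perm (Fin 7)) : List ℕ := List.ofFn (fun i => (σ i).val)

theorem toL_length (σ : Equiv.Perm (Fin 7)) : (toL σ).length = 7 := by simp [toL]

theorem toL_getD (σ : Equiv.Perm (Fin 7)) (i : Fin 7) : (toL σ).getD i.val 0 = (σ i).val := by
  unfold toL
  rw [List.getD_eq_getElem _ _ (by rw [List.length_ofFn]; exact i.isLt), List.getElem_ofFn]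

theorem toL_mul (σ τ : Equiv.Perm (Fin 7)) : toL (σ * τ) = cmp (toL σ) (toL τ) := by
  have h : cmp (toL σ) (toL τ) = List.ofFn (fun i => (toL σ).getD (τ i).val 0) := by
    unfold cmp
    conv_lhs => rw [show toL τ = List.ofFn (fun i => (τ i).val) from rfl, List.map_ofFn]
    rfl
  rw [h]
  unfold toL
  congr 1
  funext i
  rw [show List.ofFn (fun i => (σ i).val) = toL σ from rfl, toL_getD]
  rfl

theorem toL_one : toL 1 = id7 := by decide

theorem toL_inj {σ τ : Equiv.Perm (Fin 7)} (h : toL σ = toL τ) : σ = τ := by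
  have h' := List.ofFn_injective h
  exact Equiv.ext fun i => Fin.ext (congrFun h' i)

theorem toL_pow (σ : Equiv.Perm (Fin 7)) (k : ℕ) : toL (σ ^ k) = pwS (toL σ) k := by
  induction k with
  | zero => rw [pow_zero, toL_one]; rfl
  | succ n ih => rw [pow_succ, toL_mul, ih]; rfl

theorem toL_perm (σ : Equiv.Perm (Fin 7)) : (toL σ).Perm id7 := by
  have h1 : toL σ = ((List.finRange 7).map σ).map Fin.val := by
    unfold toL
    rw [List.ofFn_eq_map, List.map_map]
    rfl
  rw [h1]
  have h2 : id7 = (List.finRange 7).map Fin.val := by decide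
  rw [h2]
  exact (Equiv.Perm.map_finRange_perm σ).map _

theorem toL_mem (σ : Equiv.Perm (Fin 7)) : toL σ ∈ S7L := List.mem_permutations'.mpr (toL_perm σ)

theorem exists_toL_of_ok {L : List ℕ} (hlen : L.length = 7) (hnd : L.Nodup)
    (hlt : ∀ x ∈ L, x < 7) : ∃ σ : Equiv.Perm (Fin 7), toL σ = L := by
  let f : Fin 7 → Fin 7 := fun i =>
    ⟨L[i.val]'(by rw [hlen]; exact i.isLt), hlt _ (List.getElem_mem _)⟩
  have hf : Function.Injective f := by
    intro i j hij
    have h1 : L[i.val]'(by rw [hlen]; exact i.isLt) = L[j.val]'(by rw [hlen]; exact j.isLt) :=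
      congrArg Fin.val hij
    exact Fin.ext ((hnd.getElem_inj_iff).mp h1)
  refine ⟨Equiv.ofBijective f (Finite.injective_iff_bijective.mp hf), ?_⟩
  apply List.ext_getElem
  · rw [toL_length, hlen]
  · intro i h1 h2
    simp only [toL, List.getElem_ofFn, Equiv.ofBijective_apply, f]

theorem exists_toL {L : List ℕ} (hL : L ∈ S7L) : ∃ σ : Equiv.Perm (Fin 7), toL σ = L := by
  have hp : L.Perm id7 := List.mem_permutations'.mp hL
  refine exists_toL_of_ok hp.length_eq (hp.nodup_iff.mpr (by decide)) ?_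
  intro x hx
  have hx' : x ∈ id7 := hp.mem_iff.mp hx
  revert x
  intro x _ hx'
  have : ∀ y ∈ id7, y < 7 := by decide
  exact this x hx'

/-- Evaluation of a word in a monoid. -/
def evG {H : Type*} [Monoid H] (w : List Bool) (x y : H) : H :=
  w.foldl (fun r b => r * (if b then x else y)) 1

theorem evG_mem {H : Type*} [Group H] (K : Subgroup H) (w : List Bool) (x y : H)
    (hx : x ∈ K) (hy : y ∈ K) : evG w x y ∈ K := by
  unfold evG
  suffices h : ∀ r ∈ K, w.foldl (fun r b => r * (if b then x else y)) r ∈ K from h 1 K.one_mem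
  induction w with
  | nil => intro r hr; exact hr
  | cons b w ih =>
    intro r hr
    rw [List.foldl_cons]
    apply ih
    apply K.mul_mem hr
    split <;> assumption

theorem toL_evG (w : List Bool) (x y : Equiv.Perm (Fin 7)) :
    toL (evG w x y) = evW w (toL x) (toL y) := by
  unfold evG evW
  rw [← toL_one]
  generalize (1 : Equiv.Perm (Fin 7)) = r
  induction w generalizing r with
  | nil => rfl
  | cons b w ih =>
    rw [List.foldl_cons, List.foldl_cons, ih]
    congr 1
    rw [toL_mul]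
    cases b <;> rfl

theorem support_card (σ : Equiv.Perm (Fin 7)) : σ.support.card = mov (toL σ) := by
  have hterm : ∀ i : Fin 7, (if σ i ≠ i then 1 else 0) =
      (if (toL σ).getD i.val 0 = i.val then 0 else 1) := by
    intro i
    rw [toL_getD]
    by_cases h : σ i = i
    · simp [h]
    · have h' : (σ i).val ≠ i.val := fun h'' => h (Fin.ext h'')
      simp [h, h']
  have hsup : σ.support = Finset.univ.filter (fun x => σ x ≠ x) := by
    ext x; simp
  rw [hsup, Finset.card_filter, Fin.sum_univ_seven]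
  simp only [hterm]
  rfl

theorem three_of_mov (σ : Equiv.Perm (Fin 7)) (h : mov (toL σ) = 3) : σ.IsThreeCycle := by
  rw [← card_support_eq_three_iff, support_card]
  exact h

theorem three_of_has3 (G : Subgroup (Equiv.Perm (Fin 7))) (σ : Equiv.Perm (Fin 7)) (hσ : σ ∈ G)
    (h : has3 (toL σ) = true) : ∃ τ ∈ G, τ.IsThreeCycle := by
  unfold has3 at h
  simp only [Bool.or_eq_true, beq_iff_eq] at h
  rcases h with (h | h) | h
  · exact ⟨σ, hσ, three_of_mov σ h⟩
  · rw [← toL_mul] at h
    exact ⟨σ * σ, G.mul_mem hσ hσ, three_of_mov _ h⟩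
  · rw [← toL_mul, ← toL_mul] at h
    exact ⟨σ * σ * (σ * σ), G.mul_mem (G.mul_mem hσ hσ) (G.mul_mem hσ hσ), three_of_mov _ h⟩

/-- The subgroup given by a list of tables. -/
def subL (PL : List (List ℕ)) (hone : id7 ∈ PL) (hmul : ∀ A ∈ PL, ∀ B ∈ PL, cmp A B ∈ PL)
    (hinv : ∀ A ∈ PL, ∃ B ∈ PL, cmp A B = id7)
    (hok : ∀ A ∈ PL, A.length = 7 ∧ A.Nodup ∧ ∀ x ∈ A, x < 7) :
    Subgroup (Equiv.Perm (Fin 7)) where
  carrier := {g | toL g ∈ PL}
  mul_mem' := by
    intro a b ha hb
    show toL (a * b) ∈ PL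
    rw [toL_mul]; exact hmul _ ha _ hb
  one_mem' := by
    show toL 1 ∈ PL
    rw [toL_one]; exact hone
  inv_mem' := by
    intro a ha
    show toL a⁻¹ ∈ PL
    obtain ⟨B, hB, hAB⟩ := hinv _ ha
    obtain ⟨b, rfl⟩ := exists_toL_of_ok (hok B hB).1 (hok B hB).2.1 (hok B hB).2.2
    rw [← toL_mul, ← toL_one] at hAB
    have : a⁻¹ = b := inv_eq_of_mul_eq_one_right (toL_inj hAB)
    rw [this]; exact hB

/-- The number of elements of a subgroup whose tables are exactly a duplicate-free list. -/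
theorem card_of_tables (G : Subgroup (Equiv.Perm (Fin 7))) (PL : List (List ℕ)) (hnd : PL.Nodup)
    (h1 : ∀ g ∈ G, toL g ∈ PL) (h2 : ∀ L ∈ PL, ∃ g ∈ G, toL g = L) :
    Nat.card G = PL.length := by
  classical
  have e : G ≃ {L // L ∈ PL} :=
    Equiv.ofBijective (fun g => ⟨toL g.1, h1 g.1 g.2⟩) ⟨by
      intro g g' h
      exact Subtype.ext (toL_inj (congrArg Subtype.val h)), by
      rintro ⟨L, hL⟩
      obtain ⟨g, hg, rfl⟩ := h2 L hL
      exact ⟨⟨g, hg⟩, rfl⟩⟩
  rw [Nat.card_congr e]
  have h3 : Nat.card {L // L ∈ PL} = PL.toFinset.card := by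
    rw [← Fintype.card_coe PL.toFinset, ← Nat.card_eq_fintype_card]
    exact Nat.card_congr (Equiv.subtypeEquivRight (fun x => List.mem_toFinset.symm))
  rw [h3, List.toFinset_card_of_nodup hnd]

end Cfsg.Agent.Helper29.Deg7
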