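import Mathlib
import Cfsg.Agent.Helper29.Deg7.Defs

set_option autoImplicit false

namespace Cfsg.Agent.Helper29.Deg7

set_option maxRecDepth 1000000 in
theorem cover_4 : ∀ L ∈ S7L, L.getD 0 0 = 4 → (isN L = true ∨ isF TT1 LN1 L = true ∨
    isF TT2 LN2 L = true ∨ fam3.any (fun w => has3 (evW w c0L L)) = true) := by decide +kernel

set_option maxRecDepth 1000000 in
theorem cover_5 : ∀ L ∈ S7L, L.getD 0 0 = 5 → (isN L = true ∨ isF TT1 LN1 L = true ∨
    isF TT2 LN2 L = true ∨ fam3.any (fun w => has3 (evW w c0L L)) = true) := by decide +kernel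

set_option maxRecDepth 1000000 in
theorem cover_6 : ∀ L ∈ S7L, L.getD 0 0 = 6 → (isN L = true ∨ isF TT1 LN1 L = true ∨
    isF TT2 LN2 L = true ∨ fam3.any (fun w => has3 (evW w c0L L)) = true) := by decide +kernel

end Cfsg.Agent.Helper29.Deg7
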