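import Mathlib
import Cfsg.Agent.Helper29.Deg7.Defs

set_option autoImplicit false

namespace Cfsg.Agent.Helper29.Deg7

set_option maxRecDepth 1000000 in
theorem head_lt : ∀ L ∈ S7L, L.getD 0 0 < 7 := by decide +kernel

set_option maxRecDepth 1000000 in
theorem isN_mem : ∀ L ∈ S7L, isN L = true → L ∈ N42L := by decide +kernel

theorem P7_one : id7 ∈ P7L := by decide +kernel
theorem P7_c0 : c0L ∈ P7L := by decide +kernel
theorem P7_mul : ∀ A ∈ P7L, ∀ B ∈ P7L, cmp A B ∈ P7L := by decide +kernel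
theorem P7_inv : ∀ A ∈ P7L, ∃ B ∈ P7L, cmp A B = id7 := by decide +kernel
theorem P7_ok : ∀ A ∈ P7L, A.length = 7 ∧ A.Nodup ∧ ∀ x ∈ A, x < 7 := by decide +kernel
theorem P7_comm : ∀ Q ∈ P7L, ∀ Q' ∈ P7L, cmp Q Q' = cmp Q' Q := by decide +kernel
theorem c0_ord : pwS c0L 7 = id7 ∧ c0L ≠ id7 := by decide +kernel

set_option maxRecDepth 1000000 in
theorem N_comm : ∀ A ∈ N42L, ∀ B ∈ N42L, ∃ Q ∈ P7L, cmp A B = cmp Q (cmp B A) := by
  decide +kernel

/-- The list-level facts about a Fano group. -/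
structure FData (TT : List (List ℕ)) (lines : List (ℕ × ℕ × ℕ)) (PL : List (List ℕ))
    (sL : List ℕ) (F W : List (List Bool)) (AL : List ℕ) : Prop where
  nodup : PL.Nodup
  len : PL.length = 168
  table : W.map (fun w => evW w c0L sL) = PL
  reach : ∀ L ∈ PL, isN L = true ∨ F.any (fun w => evW w c0L L == sL) = true
  mem : ∀ L ∈ S7L, isF TT lines L = true → L ∈ PL
  amem : AL ∈ PL
  esc : ∀ L ∈ S7L, (isN L = true ∨ isF TT1 LN1 L = true ∨ isF TT2 LN2 L = true) → L ∉ PL →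
    (isN (cmp AL L) = false ∧ isF TT1 LN1 (cmp AL L) = false ∧ isF TT2 LN2 (cmp AL L) = false)

set_option maxRecDepth 1000000 in
theorem fdata1 : FData TT1 LN1 L1L s1L F1 W1 A1L := by
  refine ⟨?_, ?_, ?_, ?_, ?_, ?_, ?_⟩ <;> decide +kernel

set_option maxRecDepth 1000000 in
theorem fdata2 : FData TT2 LN2 L2L s2L F2 W2 A2L := by
  refine ⟨?_, ?_, ?_, ?_, ?_, ?_, ?_⟩ <;> decide +kernel

end Cfsg.Agent.Helper29.Deg7
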