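import Mathlib
import Cfsg.Agent.Helper29.Deg7.Bridge
import Cfsg.Agent.Helper29.Deg7.Lists
import Cfsg.Agent.Helper29.Deg7.CoverA
import Cfsg.Agent.Helper29.Deg7.CoverB
import Cfsg.Agent.S1013

set_option autoImplicit false

namespace Cfsg.Agent.Helper29.Deg7

open scoped commutatorElement

/-- The standard seven-cycle. -/
abbrev c0 : Equiv.Perm (Fin 7) := finRotate 7

theorem toL_c0 : toL c0 = c0L := by decide

theorem P7_pow : ∀ Q ∈ P7L, ∃ k ∈ List.range 7, Q = pwS c0L k := by decide +kernel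

theorem fact168_7 : (168 : ℕ).factorization 7 = 1 := by
  have h : (168 : ℕ) = 7 ^ 1 * 24 := by norm_num
  rw [h, Nat.factorization_mul (by norm_num) (by norm_num),
    Nat.Prime.factorization_pow (by norm_num)]
  simp [Nat.factorization_eq_zero_of_not_dvd (show ¬ 7 ∣ 24 by norm_num)]

theorem order_c0 : orderOf c0 = 7 := by
  have : Fact (Nat.Prime 7) := ⟨by norm_num⟩
  refine orderOf_eq_prime (toL_inj ?_) (fun h => c0_ord.2 ?_)
  · rw [toL_pow, toL_c0, c0_ord.1, toL_one]
  · rw [← toL_c0, h, toL_one]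

theorem cover (L : List ℕ) (hL : L ∈ S7L) : isN L = true ∨ isF TT1 LN1 L = true ∨
    isF TT2 LN2 L = true ∨ fam3.any (fun w => has3 (evW w c0L L)) = true := by
  have h := head_lt L hL
  generalize hr : L.getD 0 0 = r at h
  interval_cases r
  · exact cover_0 L hL hr
  · exact cover_1 L hL hr
  · exact cover_2 L hL hr
  · exact cover_3 L hL hr
  · exact cover_4 L hL hr
  · exact cover_5 L hL hr
  · exact cover_6 L hL hr

theorem pretrans (G : Subgroup (Equiv.Perm (Fin 7))) (hc : c0 ∈ G) :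
    MulAction.IsPretransitive G (Fin 7) := by
  have key : ∀ i j : Fin 7, ∃ k : Fin 7, (c0 ^ k.val) i = j := by decide
  refine ⟨fun i j => ?_⟩
  obtain ⟨k, hk⟩ := key i j
  exact ⟨⟨c0 ^ k.val, G.pow_mem hc _⟩, hk⟩

theorem no_three (G : Subgroup (Equiv.Perm (Fin 7))) (hc : c0 ∈ G)
    (hA : ¬ alternatingGroup (Fin 7) ≤ G) (τ : Equiv.Perm (Fin 7)) (hτ : τ ∈ G) :
    ¬ τ.IsThreeCycle := by
  intro h3
  apply hA
  have := pretrans G hc
  have hprim : MulAction.IsPreprimitive G (Fin 7) :=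
    MulAction.IsPreprimitive.of_prime_card
      (by rw [Nat.card_eq_fintype_card, Fintype.card_fin]; norm_num)
  exact Equiv.Perm.alternatingGroup_le_of_isPreprimitive_of_isThreeCycle_mem hprim h3 hτ

theorem cover_G (G : Subgroup (Equiv.Perm (Fin 7))) (hc : c0 ∈ G)
    (hA : ¬ alternatingGroup (Fin 7) ≤ G) (g : Equiv.Perm (Fin 7)) (hg : g ∈ G) :
    isN (toL g) = true ∨ isF TT1 LN1 (toL g) = true ∨ isF TT2 LN2 (toL g) = true := by
  rcases cover (toL g) (toL_mem g) with h | h | h | h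
  · exact Or.inl h
  · exact Or.inr (Or.inl h)
  · exact Or.inr (Or.inr h)
  · exfalso
    rw [List.any_eq_true] at h
    obtain ⟨w, _, hw⟩ := h
    rw [← toL_c0, ← toL_evG] at hw
    obtain ⟨τ, hτ, h3⟩ := three_of_has3 G _ (evG_mem G w c0 g hc hg) hw
    exact no_three G hc hA τ hτ h3

theorem solvable_of_N (G : Subgroup (Equiv.Perm (Fin 7))) (hc : c0 ∈ G)
    (h : ∀ g ∈ G, isN (toL g) = true) : Group.IsSolvable G := by
  set x : G := ⟨c0, hc⟩ with hx
  have hcomm : ∀ a b : G, ⁅a, b⁆ ∈ Subgroup.zpowers x := by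
    intro a b
    have ha := isN_mem _ (toL_mem a.1) (h a.1 a.2)
    have hb := isN_mem _ (toL_mem b.1) (h b.1 b.2)
    obtain ⟨Q, hQ, hQe⟩ := N_comm _ ha _ hb
    obtain ⟨k, _, rfl⟩ := P7_pow Q hQ
    rw [← toL_c0, ← toL_pow, ← toL_mul, ← toL_mul, ← toL_mul] at hQe
    have he := toL_inj hQe
    rw [Subgroup.mem_zpowers_iff]
    refine ⟨k, ?_⟩
    apply Subtype.ext
    rw [commutatorElement_def]
    simp only [Subgroup.coe_mul, Subgroup.coe_inv, zpow_natCast, Subgroup.coe_pow, hx]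
    rw [he]; group
  have h1 : ⁅(⊤ : Subgroup G), ⊤⁆ ≤ Subgroup.zpowers x :=
    Subgroup.commutator_le.mpr (fun a _ b _ => hcomm a b)
  have h2 : ⁅Subgroup.zpowers x, Subgroup.zpowers x⁆ = ⊥ := by
    rw [eq_bot_iff, Subgroup.commutator_le]
    intro a ha b hb
    rw [Subgroup.mem_bot, commutatorElement_eq_one_iff_commute]
    obtain ⟨m, rfl⟩ := Subgroup.mem_zpowers_iff.mp ha
    obtain ⟨n, rfl⟩ := Subgroup.mem_zpowers_iff.mp hb
    exact (Commute.refl x).zpow_zpow m n
  rw [Group.isSolvable_def]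
  refine ⟨2, ?_⟩
  rw [eq_bot_iff, ← h2]
  show derivedSeries G 2 ≤ _
  rw [derivedSeries_succ, derivedSeries_succ, derivedSeries_zero]
  exact Subgroup.commutator_mono h1 h1

theorem fano_core {TT : List (List ℕ)} {lines : List (ℕ × ℕ × ℕ)} {PL : List (List ℕ)}
    {sL : List ℕ} {F W : List (List Bool)} {AL : List ℕ} (hD : FData TT lines PL sL F W AL)
    (G : Subgroup (Equiv.Perm (Fin 7))) (hc : c0 ∈ G)
    (hcov : ∀ g ∈ G, isN (toL g) = true ∨ isF TT1 LN1 (toL g) = true ∨
      isF TT2 LN2 (toL g) = true)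
    (g : Equiv.Perm (Fin 7)) (hg : g ∈ G) (hgF : isF TT lines (toL g) = true)
    (hgN : isN (toL g) = false) :
    (∀ x ∈ G, toL x ∈ PL) ∧ (∀ L ∈ PL, ∃ x ∈ G, toL x = L) := by
  have hgP : toL g ∈ PL := hD.mem _ (toL_mem g) hgF
  have hs : ∃ s ∈ G, toL s = sL := by
    rcases hD.reach _ hgP with h | h
    · rw [hgN] at h; exact absurd h Bool.false_ne_true
    · rw [List.any_eq_true] at h
      obtain ⟨w, _, hw⟩ := h
      rw [beq_iff_eq, ← toL_c0, ← toL_evG] at hw
      exact ⟨_, evG_mem G w c0 g hc hg, hw⟩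
  obtain ⟨s, hsG, hsL⟩ := hs
  have hreal : ∀ L ∈ PL, ∃ x ∈ G, toL x = L := by
    intro L hL
    rw [← hD.table, List.mem_map] at hL
    obtain ⟨w, _, hw⟩ := hL
    rw [← toL_c0, ← hsL, ← toL_evG] at hw
    exact ⟨_, evG_mem G w c0 s hc hsG, hw⟩
  refine ⟨?_, hreal⟩
  intro x hx
  by_contra hxP
  obtain ⟨a, haG, haL⟩ := hreal AL hD.amem
  have hesc := hD.esc _ (toL_mem x) (hcov x hx) hxP
  rw [← haL, ← toL_mul] at hesc
  rcases hcov (a * x) (G.mul_mem haG hx) with h | h | h
  · rw [hesc.1] at h; exact Bool.false_ne_true h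
  · rw [hesc.2.1] at h; exact Bool.false_ne_true h
  · rw [hesc.2.2] at h; exact Bool.false_ne_true h

theorem simple_of (G : Subgroup (Equiv.Perm (Fin 7))) (hc : c0 ∈ G) (hcard : Nat.card G = 168)
    (g : Equiv.Perm (Fin 7)) (hg : g ∈ G) (hgN : isN (toL g) = false) : IsSimpleGroup G := by
  have : MulAction.IsPretransitive G (Fin 7) := pretrans G hc
  have : Fact (Nat.Prime 7) := ⟨by norm_num⟩
  set x : G := ⟨c0, hc⟩ with hx
  have hxo : orderOf x = 7 := by
    have h0 : orderOf (x : Equiv.Perm (Fin 7)) = 7 := order_c0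
    rw [Subgroup.orderOf_coe] at h0
    exact h0
  have hPcard : Nat.card (Subgroup.zpowers x) = 7 ^ (Nat.card G).factorization 7 := by
    rw [Nat.card_zpowers, hxo, hcard, fact168_7, pow_one]
  set P : Sylow 7 G := Sylow.ofCard (Subgroup.zpowers x) hPcard with hP
  have hPc : Nat.card (P : Subgroup G) = 7 := by
    show Nat.card (Subgroup.zpowers x) = 7
    rw [Nat.card_zpowers, hxo]
  set N := Subgroup.normalizer ((P : Subgroup G) : Set G) with hN
  have h1 : Nat.card (Sylow 7 G) = N.index := Sylow.card_eq_index_normalizer P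
  have h2 := Subgroup.card_mul_index N
  rw [hcard] at h2
  have hPN : (P : Subgroup G) ≤ N := Subgroup.le_normalizer
  have h3 := Subgroup.card_mul_index ((P : Subgroup G).subgroupOf N)
  rw [Nat.card_congr (Subgroup.subgroupOfEquivOfLe hPN).toEquiv, hPc] at h3
  have h4 : Nat.card (Sylow 7 G) ≡ 1 [MOD 7] := card_sylow_modEq_one 7 G
  rw [h1] at h4
  have hne : N.index ≠ 1 := by
    intro h1'
    have hNtop : N = ⊤ := Subgroup.index_eq_one.mp h1'
    have hgN' : (⟨g, hg⟩ : G) ∈ N := by rw [hNtop]; trivial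
    rw [hN, Subgroup.mem_normalizer_iff] at hgN'
    have hx1 : x ∈ (P : Subgroup G) := Subgroup.mem_zpowers x
    have hconj := (hgN' x).mp hx1
    obtain ⟨m, hm⟩ := Subgroup.mem_zpowers_iff.mp hconj
    have hm' : c0 ^ m = g * c0 * g⁻¹ := by
      have := congrArg Subtype.val hm
      simpa [hx] using this
    let P7 := subL P7L P7_one P7_mul P7_inv P7_ok
    have hc0P : c0 ∈ P7 := by
      show toL c0 ∈ P7L
      rw [toL_c0]; exact P7_c0
    have hq : toL (c0 ^ m) ∈ P7L := P7.zpow_mem hc0P m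
    have he : g * c0 = c0 ^ m * g := by rw [hm']; group
    have hisN : isN (toL g) = true := by
      unfold isN
      rw [List.any_eq_true]
      refine ⟨toL (c0 ^ m), hq, ?_⟩
      rw [beq_iff_eq, ← toL_c0, ← toL_mul, ← toL_mul, he]
    rw [hgN] at hisN
    exact Bool.false_ne_true hisN
  unfold Nat.ModEq at h4
  generalize hn : N.index = n at h1 h2 h4 hne
  generalize hidx : ((P : Subgroup G).subgroupOf N).index = idx at h3
  have hmul : idx * n = 24 := by
    rw [← h3] at h2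
    nlinarith
  have hn24 : n ≤ 24 := Nat.le_of_dvd (by norm_num) ⟨idx, by linarith⟩
  obtain ⟨hn8, hidx3⟩ : n = 8 ∧ idx = 3 := by
    interval_cases n <;> omega
  refine Cfsg.Agent.S1013.result (Fintype.card_fin 7) G P ?_ ?_
  · rw [h1, hn8]; norm_num
  · rw [hidx, hidx3]; norm_num

theorem core (G : Subgroup (Equiv.Perm (Fin 7))) (hc : c0 ∈ G) (hS : ¬ Group.IsSolvable G)
    (hA : ¬ alternatingGroup (Fin 7) ≤ G) : Nat.card G = 168 ∧ IsSimpleGroup G := by
  have hcov := cover_G G hc hA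
  obtain ⟨g, hg, hgN⟩ : ∃ g ∈ G, isN (toL g) = false := by
    by_contra hcon
    push Not at hcon
    exact hS (solvable_of_N G hc (fun g hg => by simpa using hcon g hg))
  have key : ∀ {TT : List (List ℕ)} {lines : List (ℕ × ℕ × ℕ)} {PL : List (List ℕ)}
      {sL : List ℕ} {F W : List (List Bool)} {AL : List ℕ} (_ : FData TT lines PL sL F W AL),
      isF TT lines (toL g) = true → Nat.card G = 168 ∧ IsSimpleGroup G := by
    intro TT lines PL sL F W AL hD hgF
    obtain ⟨h1, h2⟩ := fano_core hD G hc hcov g hg hgF hgN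
    have hcard : Nat.card G = 168 := by rw [card_of_tables G PL hD.nodup h1 h2, hD.len]
    exact ⟨hcard, simple_of G hc hcard g hg hgN⟩
  rcases hcov g hg with h | h | h
  · rw [hgN] at h; exact absurd h Bool.false_ne_true
  · exact key fdata1 h
  · exact key fdata2 h

end Cfsg.Agent.Helper29.Deg7
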